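import Mathlib

/-! Definitions for S4202 (class numbers of permutation groups). See stubs/Cfsg/Agent/MK/PLAN.md. -/

set_option autoImplicit false

namespace Cfsg.Agent.MK

open Finset

/-- bound for the class number of a transitive group of degree `d` -/
noncomputable def be (d : ℕ) : ℝ := if d = 2 then 2 else √3 ^ (d - 1)

/-- loss factor for an open path whose next point lies in an orbit of length `d` -/
noncomputable def uu (d : ℕ) : ℝ := if d ≤ 2 then 1 else 137 / 100

/-- `o x` is the class of `x` in a partition -/
def Cl {α : Type*} (o : α → Finset α) : Prop := (∀ x, x ∈ o x) ∧ ∀ x y, y ∈ o x → o y = o x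

/-- product of `be` over the classes meeting `S` -/
noncomputable def Phi {α : Type*} [DecidableEq α] (o : α → Finset α) (S : Finset α) : ℝ :=
  ∏ O ∈ S.image o, be O.card

/-- sum of `uu` over the classes meeting `S` -/
noncomputable def Psi {α : Type*} [DecidableEq α] (o : α → Finset α) (S : Finset α) : ℝ :=
  ∑ O ∈ S.image o, uu O.card

end Cfsg.Agent.MK
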