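import Cfsg.Agent.MK.Part
import Cfsg.Agent.KP.Part

/-! The class number of a permutation group is at most the product of `be` over the orbit lengths. -/

set_option autoImplicit false

namespace Cfsg.Agent.MK

open Finset MulAction KP

universe u

section
variable {α : Type*} [Fintype α] [DecidableEq α] {G : Type*} [Group G] [MulAction G α]

open Classical in
/-- orbits as finsets -/
noncomputable def ob (H : Subgroup G) (x : α) : Finset α :=
  univ.filter fun y => ∃ h ∈ H, h • x = y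

omit [DecidableEq α] in
theorem mem_ob {H : Subgroup G} {x y : α} : y ∈ ob H x ↔ ∃ h ∈ H, h • x = y := by simp [ob]

omit [DecidableEq α] in
theorem cl_ob (H : Subgroup G) : Cl (ob H : α → Finset α) := by
  refine ⟨fun x => mem_ob.2 ⟨1, H.one_mem, one_smul _ _⟩, fun x y hy => ?_⟩
  obtain ⟨h, hh, rfl⟩ := mem_ob.1 hy
  ext w
  simp only [mem_ob]
  constructor
  · rintro ⟨k, hk, rfl⟩
    exact ⟨k * h, H.mul_mem hk hh, mul_smul _ _ _⟩
  · rintro ⟨k, hk, rfl⟩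
    exact ⟨k * h⁻¹, H.mul_mem hk (H.inv_mem hh), by rw [mul_smul, inv_smul_smul]⟩

omit [DecidableEq α] in
theorem ob_mono {H K : Subgroup G} (h : H ≤ K) (x : α) : ob H x ⊆ ob K x := fun _ hy => by
  obtain ⟨k, hk, e⟩ := mem_ob.1 hy
  exact mem_ob.2 ⟨k, h hk, e⟩

omit [DecidableEq α] in
theorem ob_fix {H : Subgroup G} {a : α} (h : ∀ g ∈ H, g • a = a) : ob H a = {a} := by
  ext w
  simp only [mem_ob, mem_singleton]
  exact ⟨fun ⟨k, hk, e⟩ => e.symm.trans (h k hk), fun e => ⟨1, H.one_mem, by rw [one_smul, e]⟩⟩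

/-- the number of classes meeting a set -/
noncomputable def nc (X : Set G) : ℕ := (ConjClasses.mk '' X).ncard

theorem nc_le [Finite G] {X Y : Set G} (h : ∀ x ∈ X, ∃ y ∈ Y, IsConj x y) : nc X ≤ nc Y := by
  refine Set.ncard_le_ncard ?_ (Set.toFinite _)
  rintro _ ⟨x, hx, rfl⟩
  obtain ⟨y, hy, e⟩ := h x hx
  exact ⟨y, hy, (ConjClasses.mk_eq_mk_iff_isConj.2 e).symm⟩

theorem nc_union (X Y : Set G) : nc (X ∪ Y) ≤ nc X + nc Y := by
  unfold nc
  rw [Set.image_union]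
  exact Set.ncard_union_le _ _

theorem nc_empty : nc (∅ : Set G) = 0 := by simp [nc]

theorem nc_biUnion {ι : Type*} (I : Finset ι) (Y : ι → Set G) :
    nc (⋃ i ∈ I, Y i) ≤ ∑ i ∈ I, nc (Y i) := by
  classical
  induction I using Finset.induction_on with
  | empty => simp [nc_empty]
  | insert i I hi ih =>
    rw [set_biUnion_insert, sum_insert hi]
    exact (nc_union _ _).trans (Nat.add_le_add_left ih _)

theorem nc_coset [Finite G] {P : Subgroup G} (X : Set G)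
    (h1 : ∀ x ∈ X, ∀ y ∈ X, x⁻¹ * y ∈ P) (h2 : ∀ k ∈ P, ∀ x ∈ X, k * x * k⁻¹ ∈ X) : nc X ≤ kc P := by
  have := coset X h1 h2
  rwa [Subgroup.relIndex_self, one_mul] at this

/-- elements of the coset `g₀ A` leading `z` to `a` in at most `M` steps -/
def XX (A : Subgroup G) (g₀ : G) (z a : α) (M : ℕ) : Set G :=
  {g | g₀⁻¹ * g ∈ A ∧ ∃ m, 1 ≤ m ∧ m ≤ M ∧ g ^ m • z = a}

/-- an open path from `a` to `z` -/
structure St (A Q P : Subgroup G) (g₀ : G) (z a : α) : Prop where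
  hQ : ∀ h, h ∈ Q ↔ g₀⁻¹ * h * g₀ ∈ A
  hA : ∀ h, h ∈ P ↔ h ∈ A ∧ h • z = z
  hP : ∀ h, h ∈ P ↔ h ∈ Q ∧ h • a = a

omit [Fintype α] [DecidableEq α] in
theorem St.conj {A Q P : Subgroup G} {g₀ : G} {z a : α} (s : St A Q P g₀ z a) {h g : G}
    (hh : h ∈ P) (hg : g₀⁻¹ * g ∈ A) : g₀⁻¹ * (h * g * h⁻¹) ∈ A := by
  have : g₀⁻¹ * (h * g * h⁻¹) = (g₀⁻¹ * h * g₀) * (g₀⁻¹ * g) * h⁻¹ := by group
  rw [this]
  exact A.mul_mem (A.mul_mem ((s.hQ h).1 ((s.hP h).1 hh).1) hg) (A.inv_mem ((s.hA h).1 hh).1)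

omit [Fintype α] [DecidableEq α] in
theorem St.smul {A Q P : Subgroup G} {g₀ : G} {z a : α} (s : St A Q P g₀ z a) {h : G} (g : G)
    (hh : h ∈ P) : (h * g * h⁻¹) • z = h • g • z := by
  rw [mul_smul, mul_smul, ((s.hA _).1 (P.inv_mem hh)).2]

omit [Fintype α] [DecidableEq α] in
theorem St.next {A Q P : Subgroup G} {g₀ : G} {z a : α} (s : St A Q P g₀ z a) {g : G}
    (hg : g₀⁻¹ * g ∈ A) :
    St P (Q ⊓ stabilizer G (g • z)) (P ⊓ stabilizer G (g • z)) g (g • z) a := by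
  refine ⟨fun h => ?_, fun h => Iff.rfl, fun h => ?_⟩
  · rw [Subgroup.mem_inf, mem_stabilizer_iff, s.hQ, s.hA]
    have e : g⁻¹ * h * g = (g₀⁻¹ * g)⁻¹ * (g₀⁻¹ * h * g₀) * (g₀⁻¹ * g) := by group
    refine and_congr ?_ ?_
    · rw [e, A.mul_mem_cancel_right hg, A.mul_mem_cancel_left (A.inv_mem hg)]
    · rw [mul_smul, mul_smul, inv_smul_eq_iff]
  · rw [Subgroup.mem_inf, Subgroup.mem_inf, s.hP]
    tauto

theorem step [Finite G] {a : α} {M : ℕ}
    (ih : ∀ (A Q P : Subgroup G) (g₀ : G) (z : α), St A Q P g₀ z a →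
      (nc (XX A g₀ z a M) : ℝ) ≤ Phi (ob A : α → Finset α) univ * uu (ob A z).card)
    {A Q P : Subgroup G} {g₀ : G} {z : α} (s : St A Q P g₀ z a) :
    (nc {g | g ∈ XX A g₀ z a (M + 1) ∧ g • z ≠ a} : ℝ) ≤
      Phi (ob P : α → Finset α) univ * Psi (ob P) ((ob Q (g₀ • z)).erase a) := by
  let Y : Finset α → Set G := fun O =>
    {g | (g ∈ XX A g₀ z a (M + 1) ∧ g • z ≠ a) ∧ ob P (g • z) = O}
  have h1 : nc {g | g ∈ XX A g₀ z a (M + 1) ∧ g • z ≠ a} ≤
      nc (⋃ O ∈ ((ob Q (g₀ • z)).erase a).image (ob P), Y O) := by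
    refine nc_le fun g hg => ⟨g, ?_, IsConj.refl _⟩
    simp only [Set.mem_iUnion]
    refine ⟨ob P (g • z), mem_image_of_mem _ (mem_erase.2 ⟨hg.2, mem_ob.2 ⟨g * g₀⁻¹, ?_, ?_⟩⟩), hg, rfl⟩
    · rw [s.hQ]
      simpa [mul_assoc] using hg.1.1
    · rw [mul_smul, inv_smul_smul]
  have h2 : ∀ O, (nc (Y O) : ℝ) ≤ Phi (ob P : α → Finset α) univ * uu O.card := by
    intro O
    rcases (Y O).eq_empty_or_nonempty with e | ⟨g₁, ⟨hg₁, -⟩, rfl⟩
    · rw [e, nc_empty, Nat.cast_zero]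
      exact (mul_pos (Phi_pos _ _) (uu_pos _)).le
    refine le_trans (Nat.cast_le.2 (nc_le ?_)) (ih _ _ _ _ _ (s.next hg₁.1))
    rintro g ⟨⟨⟨hg, m, hm, hM, e⟩, hne⟩, hO⟩
    obtain ⟨h, hh, eh⟩ := mem_ob.1 (hO ▸ (cl_ob P).1 (g₁ • z) : g₁ • z ∈ ob P (g • z))
    have e1 : (h * g * h⁻¹) • z = g₁ • z := by rw [s.smul g hh, eh]
    refine ⟨h * g * h⁻¹, ⟨(s.hA _).2 ⟨?_, ?_⟩, m - 1, ?_, by omega, ?_⟩, isConj_iff.2 ⟨h, rfl⟩⟩
    · have : g₁⁻¹ * (h * g * h⁻¹) = (g₀⁻¹ * g₁)⁻¹ * (g₀⁻¹ * (h * g * h⁻¹)) := by group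
      rw [this]
      exact A.mul_mem (A.inv_mem hg₁.1) (s.conj hh hg)
    · rw [mul_smul, e1, inv_smul_smul]
    · by_contra hlt
      obtain rfl : m = 1 := by omega
      exact hne (by simpa using e)
    · rw [← e1, ← mul_smul, ← pow_succ, Nat.sub_add_cancel hm, conj_pow, s.smul _ hh, e,
        ((s.hP h).1 hh).2]
  calc _ ≤ ((∑ O ∈ ((ob Q (g₀ • z)).erase a).image (ob P), nc (Y O) : ℕ) : ℝ) :=
        Nat.cast_le.2 (h1.trans (nc_biUnion _ _))
    _ ≤ _ := by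
      rw [Psi, mul_sum, Nat.cast_sum]
      exact sum_le_sum fun O _ => h2 O

theorem path [Finite G] {a : α}
    (IH : ∀ P : Subgroup G, (∀ h ∈ P, h • a = a) → (kc P : ℝ) ≤ Phi (ob P : α → Finset α) univ)
    (M : ℕ) : ∀ (A Q P : Subgroup G) (g₀ : G) (z : α), St A Q P g₀ z a →
      (nc (XX A g₀ z a M) : ℝ) ≤ Phi (ob A : α → Finset α) univ * uu (ob A z).card := by
  induction M with
  | zero =>
    intro A Q P g₀ z _
    have : XX A g₀ z a 0 = ∅ := Set.eq_empty_of_forall_notMem fun g ⟨_, m, h1, h2, _⟩ => by omega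
    rw [this, nc_empty, Nat.cast_zero]
    exact (mul_pos (Phi_pos _ _) (uu_pos _)).le
  | succ M ih =>
    intro A Q P g₀ z s
    have he : ∀ x : α, ob Q (toPerm g₀ x) = (ob A x).image (toPerm g₀) := by
      intro x
      ext w
      simp only [mem_image, mem_ob, toPerm_apply]
      constructor
      · rintro ⟨h, hh, rfl⟩
        exact ⟨_, ⟨_, (s.hQ h).1 hh, rfl⟩, by simp [mul_smul]⟩
      · rintro ⟨_, ⟨h, hh, rfl⟩, rfl⟩
        exact ⟨g₀ * h * g₀⁻¹, (s.hQ _).2 (by simpa [mul_assoc] using hh), by simp [mul_smul]⟩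
    have e1 := Phi_conj _ he
    have e2 : (ob Q (g₀ • z)).card = (ob A z).card := by
      have := he z
      rw [toPerm_apply] at this
      rw [this, card_image_of_injective _ (toPerm g₀).injective]
    rw [← e1, ← e2]
    have h1 := step ih s
    have hPa : ∀ h ∈ P, h • a = a := fun h hh => ((s.hP h).1 hh).2
    have hr := ob_mono (α := α) (show P ≤ Q from fun h hh => ((s.hP h).1 hh).1)
    by_cases ha : a ∈ ob Q (g₀ • z)
    · have h2 : nc {g | g₀⁻¹ * g ∈ A ∧ g • z = a} ≤ kc P := by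
        refine nc_coset _ (fun x hx y hy => (s.hA _).2 ⟨?_, ?_⟩) fun k hk x hx => ⟨s.conj hk hx.1, ?_⟩
        · have : x⁻¹ * y = (g₀⁻¹ * x)⁻¹ * (g₀⁻¹ * y) := by group
          rw [this]
          exact A.mul_mem (A.inv_mem hx.1) hy.1
        · rw [mul_smul, hy.2, inv_smul_eq_iff, hx.2]
        · rw [s.smul _ hk, hx.2, hPa k hk]
      have h3 : nc (XX A g₀ z a (M + 1)) ≤ nc {g | g₀⁻¹ * g ∈ A ∧ g • z = a} +
          nc {g | g ∈ XX A g₀ z a (M + 1) ∧ g • z ≠ a} := by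
        refine le_trans (nc_le fun g hg => ⟨g, ?_, IsConj.refl _⟩) (nc_union _ _)
        by_cases e : g • z = a
        · exact Or.inl ⟨hg.1, e⟩
        · exact Or.inr ⟨hg, e⟩
      have h4 := part_close (cl_ob Q) (cl_ob P) hr (ob_fix hPa) ha
      have h5 := IH P hPa
      have h2' := (Nat.cast_le (α := ℝ)).2 h2
      have h3' := (Nat.cast_le (α := ℝ)).2 h3
      push_cast at h3'
      linarith
    · have h3 : nc (XX A g₀ z a (M + 1)) ≤ nc {g | g ∈ XX A g₀ z a (M + 1) ∧ g • z ≠ a} := by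
        refine nc_le fun g hg => ⟨g, ⟨hg, fun e => ha (mem_ob.2 ⟨g * g₀⁻¹, ?_, ?_⟩)⟩, IsConj.refl _⟩
        · rw [s.hQ]
          simpa [mul_assoc] using hg.1
        · rw [mul_smul, inv_smul_smul, e]
      rw [erase_eq_of_notMem ha] at h1
      refine ((Nat.cast_le.2 h3).trans h1).trans ?_
      by_cases hne : ob Q a = {a}
      · obtain rfl : P = Q := by
          ext h
          rw [s.hP]
          refine ⟨fun x => x.1, fun x => ⟨x, ?_⟩⟩
          exact mem_singleton.1 (hne ▸ mem_ob.2 ⟨h, x, rfl⟩)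
        rw [Psi_self (cl_ob P)]
      · exact part_open (cl_ob Q) (cl_ob P) hr (ob_fix hPa) ha hne

theorem top_step [Finite G] {a : α}
    (IH : ∀ P : Subgroup G, (∀ h ∈ P, h • a = a) → (kc P : ℝ) ≤ Phi (ob P : α → Finset α) univ) :
    (kc G : ℝ) ≤ Phi (ob (⊤ : Subgroup G) : α → Finset α) univ := by
  have s : St ⊤ ⊤ (stabilizer G a) (1 : G) a a :=
    ⟨fun h => by simp, fun h => by simp, fun h => by simp⟩
  have h1 := step (path IH (Nat.card G)) s
  rw [one_smul] at h1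
  let N : Subgroup G := fixingSubgroup G (orbit G a)
  have hN : ∀ g, g ∈ N ↔ ∀ y ∈ orbit G a, g • y = y := fun g => mem_fixingSubgroup_iff G
  have h2 : nc (N : Set G) ≤ kc N :=
    nc_coset _ (fun x hx y hy => N.mul_mem (N.inv_mem hx) hy)
      fun k hk x hx => N.mul_mem (N.mul_mem hk hx) (N.inv_mem hk)
  have h3 : kc G ≤ nc (N : Set G) + nc {g | g ∈ XX ⊤ (1 : G) a a (Nat.card G + 1) ∧ g • a ≠ a} := by
    have : kc G = nc (Set.univ : Set G) := by
      rw [nc, Set.image_univ, Set.range_eq_univ.2 ConjClasses.mk_surjective, Set.ncard_univ]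
    rw [this]
    refine le_trans (nc_le fun g _ => ?_) (nc_union _ _)
    by_cases hg : g ∈ N
    · exact ⟨g, Or.inl hg, IsConj.refl _⟩
    rw [hN] at hg
    push Not at hg
    obtain ⟨_, ⟨c, rfl⟩, hc⟩ := hg
    refine ⟨c⁻¹ * g * c⁻¹⁻¹, Or.inr ⟨⟨trivial, Nat.card G, Nat.card_pos, by omega, ?_⟩, ?_⟩,
      isConj_iff.2 ⟨c⁻¹, rfl⟩⟩
    · rw [pow_card_eq_one', one_smul]
    · rw [inv_inv, mul_smul, mul_smul, Ne, inv_smul_eq_iff]
      exact hc
  have h4 := part_first (a := a) (cl_ob (⊤ : Subgroup G)) (cl_ob (stabilizer G a)) (cl_ob N)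
    (ob_mono le_top) (ob_mono le_top) (ob_fix fun _ h => h) fun x hx => ob_fix fun g hg => by
      obtain ⟨c, -, rfl⟩ := mem_ob.1 hx
      exact (hN g).1 hg _ (mem_orbit a c)
  have h5 := IH N fun h hh => (hN h).1 hh _ (mem_orbit_self a)
  have h2' := (Nat.cast_le (α := ℝ)).2 h2
  have h3' := (Nat.cast_le (α := ℝ)).2 h3
  push_cast at h3'
  linarith

end

theorem main {α : Type*} [Fintype α] [DecidableEq α] (n : ℕ) :
    ∀ (G : Type u) [Group G] [Finite G] [MulAction G α] [FaithfulSMul G α], Nat.card G = n →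
      (kc G : ℝ) ≤ Phi (ob (⊤ : Subgroup G) : α → Finset α) univ := by
  induction n using Nat.strong_induction_on with
  | _ n ih =>
  intro G _ _ _ _ hn
  by_cases h : ∀ (g : G) (a : α), g • a = a
  · have : Subsingleton G := ⟨fun x y => eq_of_smul_eq_smul (α := α) fun a => by rw [h, h]⟩
    have e : Phi (ob (⊤ : Subgroup G) : α → Finset α) univ = 1 := by
      refine prod_eq_one fun O hO => ?_
      obtain ⟨x, -, rfl⟩ := mem_image.1 hO
      rw [ob_fix fun g _ => h g x, card_singleton, be_one]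
    rw [e]
    exact_mod_cast FG.card_conjClasses_le_card.trans (Finite.card_le_one_iff_subsingleton.2 this)
  push Not at h
  obtain ⟨g, a, hg⟩ := h
  refine top_step (a := a) fun P hP => ?_
  have hlt : Nat.card P < n := hn ▸ Finite.card_subtype_lt (x := g) fun x => hg (hP g x)
  have := ih _ hlt P rfl
  have e : (ob (⊤ : Subgroup P) : α → Finset α) = ob P := by
    funext x
    ext w
    simp only [mem_ob]
    exact ⟨fun ⟨h, _, e⟩ => ⟨h, h.2, e⟩, fun ⟨h, hh, e⟩ => ⟨⟨h, hh⟩, trivial, e⟩⟩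
  rwa [e] at this

end Cfsg.Agent.MK
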