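import Cfsg.Agent.MK.Defs

/-! Numerical inequalities. See stubs/Cfsg/Agent/MK/PLAN.md, section Num. -/

set_option autoImplicit false

namespace Cfsg.Agent.MK

open Finset

theorem Num_sq : √3 * √3 = (3 : ℝ) := Real.mul_self_sqrt (by norm_num)

theorem Num_lo : (1732 / 1000 : ℝ) < √3 := Real.lt_sqrt_of_sq_lt (by norm_num)

theorem Num_hi : √3 < (17321 / 10000 : ℝ) := (Real.sqrt_lt' (by norm_num)).2 (by norm_num)

theorem Num_pos (d : ℕ) : (0 : ℝ) < √3 ^ d := pow_pos (by linarith [Num_lo]) d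

theorem be_pos (d : ℕ) : 0 < be d := by
  unfold be; split_ifs
  · norm_num
  · exact Num_pos _

theorem uu_pos (d : ℕ) : 0 < uu d := by
  unfold uu; split_ifs <;> norm_num

theorem be_one : be 1 = 1 := by simp [be]

theorem Num_be0 : be 0 = 1 := by simp [be]

theorem Num_be2 : be 2 = 2 := by simp [be]

theorem Num_be {d : ℕ} (h : d ≠ 1) : be (d + 1) = √3 ^ d := by
  rw [be, if_neg (by omega), Nat.add_sub_cancel]

theorem Num_p2 : √3 ^ 2 = (3 : ℝ) := by rw [pow_two, Num_sq]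

theorem Num_p3 : √3 ^ 3 = (3 * √3 : ℝ) := by rw [pow_succ, Num_p2]

theorem Num_p4 : √3 ^ 4 = (9 : ℝ) := by rw [show 4 = 2 * 2 from rfl, pow_mul, Num_p2]; norm_num

theorem Num_uu1 {d : ℕ} (h : d ≤ 2) : uu d = 1 := if_pos h

theorem Num_uu2 {d : ℕ} (h : 3 ≤ d) : uu d = 137 / 100 := if_neg (by omega)

theorem be_succ {d : ℕ} (hd : 1 ≤ d) : 3 * be d ≤ 2 * be (d + 1) := by
  obtain ⟨e, rfl⟩ : ∃ e, d = e + 1 := ⟨d - 1, by omega⟩
  rcases e with _ | _ | e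
  · rw [be_one, Num_be2]; norm_num
  · rw [Num_be2, Num_be (by omega), Num_p2]; norm_num
  · rw [Num_be (by omega), Num_be (by omega), pow_succ _ (e + 1 + 1)]
    nlinarith [Num_pos (e + 1 + 1), Num_lo]

theorem Num_w {a : ℕ} (ha : 1 ≤ a) : 4 / 9 * √3 ^ a ≤ be a ∧ be a ≤ 2 / 3 * √3 ^ a ∧
    (a ≠ 2 → be a ≤ 57737 / 100000 * √3 ^ a) := by
  by_cases h : a = 2
  · subst h
    rw [Num_be2, Num_p2]
    norm_num
  · obtain ⟨e, rfl⟩ : ∃ e, a = e + 1 := ⟨a - 1, by omega⟩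
    rw [Num_be (by omega), pow_succ]
    have := Num_pos e
    refine ⟨?_, ?_, fun _ => ?_⟩ <;> nlinarith [Num_lo, Num_hi]

theorem Num_key {B y T x w K M : ℝ} (hB : B ≤ w * y) (hT0 : 0 ≤ T) (hT : T ≤ K * x) (hx : 0 < x)
    (hy : 0 < y) (hw : 0 ≤ w) (h : w * K ≤ M) : B * T ≤ M * (x * y) :=
  calc B * T ≤ (w * y) * (K * x) := mul_le_mul hB hT hT0 (mul_nonneg hw hy.le)
    _ = (w * K) * (x * y) := by ring
    _ ≤ _ := mul_le_mul_of_nonneg_right h (mul_pos hx hy).le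

/-- the invariant -/
def NumI (d : ℕ) (P S : ℝ) : Prop :=
  (d = 0 ∧ P = 1 ∧ S = 0) ∨ (1 ≤ d ∧ 0 < P ∧ 0 ≤ S ∧ P ≤ be d ∧ P + S ≤ 137 / 100 * √3 ^ d ∧
    S ≤ 934 / 1000 * √3 ^ d ∧ (d = 1 → S ≤ 1) ∧ (d = 2 → S ≤ 2) ∧ (d = 3 → S ≤ 411 / 100) ∧ (d = 4 → S ≤ 8))

theorem Num_step {d a : ℕ} {P S : ℝ} (h : NumI d P S) (ha : 1 ≤ a) :
    NumI (a + d) (be a * P) (be a * (S + uu a * P)) := by
  obtain ⟨w0, w1, w2⟩ := Num_w ha
  have hb := be_pos a
  have hu := uu_pos a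
  have hy := Num_pos a
  have b3 : be 3 = 3 := by rw [Num_be (by omega), Num_p2]
  refine Or.inr ⟨by omega, ?_⟩
  rcases h with ⟨rfl, rfl, rfl⟩ | ⟨hd, hP, hS, h1, h2, h3, s1, s2, s3, s4⟩
  · rw [add_zero, mul_one, mul_one, zero_add]
    refine ⟨hb, (mul_pos hb hu).le, le_rfl, ?_, ?_, ?_, ?_, ?_, ?_⟩
    · rcases le_or_gt a 2 with k | k
      · rw [Num_uu1 k]; linarith
      · rw [Num_uu2 k]; linarith [w2 (by omega)]
    · rcases le_or_gt a 2 with k | k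
      · rw [Num_uu1 k]; linarith
      · rw [Num_uu2 k]; linarith [w2 (by omega)]
    · rintro rfl; rw [be_one, Num_uu1 (by omega)]; norm_num
    · rintro rfl; rw [Num_be2, Num_uu1 (by omega)]; norm_num
    · rintro rfl; rw [b3, Num_uu2 (by omega)]; norm_num
    · rintro rfl; rw [Num_be (by omega), Num_uu2 (by omega), Num_p3]; linarith [Num_hi]
  · have hx := Num_pos d
    have h1' := h1.trans (Num_w hd).2.1
    have e : √3 ^ (a + d) = √3 ^ d * √3 ^ a := by rw [add_comm, pow_add]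
    have hT : 0 ≤ S + uu a * P := by positivity
    refine ⟨mul_pos hb hP, mul_nonneg hb.le hT, ?_, ?_, ?_, ?_, ?_, ?_, ?_⟩
    · refine le_trans ?_ (Num_w (a := a + d) (by omega)).1
      rw [e]
      exact Num_key w1 hP.le h1' hx hy (by norm_num) (by norm_num)
    · rw [e, ← mul_add]
      rcases le_or_gt a 2 with k | k
      · exact Num_key (K := 137 / 100 + 2 / 3) w1 (by positivity) (by rw [Num_uu1 k]; linarith) hx hy (by norm_num)
          (by norm_num)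
      · exact Num_key (K := 137 / 100 + 137 / 100 * (2 / 3)) (w2 (by omega)) (by positivity)
          (by rw [Num_uu2 k]; linarith) hx hy (by norm_num) (by norm_num)
    · rw [e]
      rcases le_or_gt a 2 with k | k
      · exact Num_key (K := 137 / 100) w1 hT (by rw [Num_uu1 k]; linarith) hx hy (by norm_num) (by norm_num)
      · exact Num_key (K := 137 / 100 + 37 / 100 * (2 / 3)) (w2 (by omega)) hT
          (by rw [Num_uu2 k]; linarith) hx hy (by norm_num) (by norm_num)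
    · omega
    · intro k
      obtain ⟨rfl, rfl⟩ : a = 1 ∧ d = 1 := by omega
      rw [be_one] at h1 ⊢
      rw [Num_uu1 (by omega)]; linarith [s1 rfl]
    · intro k
      obtain ⟨rfl, rfl⟩ | ⟨rfl, rfl⟩ : (a = 1 ∧ d = 2) ∨ (a = 2 ∧ d = 1) := by omega
      · rw [Num_be2] at h1
        rw [be_one, Num_uu1 (by omega)]; linarith [s2 rfl]
      · rw [be_one] at h1
        rw [Num_be2, Num_uu1 (by omega)]; linarith [s1 rfl]
    · intro k
      obtain ⟨rfl, rfl⟩ | ⟨rfl, rfl⟩ | ⟨rfl, rfl⟩ : (a = 1 ∧ d = 3) ∨ (a = 2 ∧ d = 2) ∨ (a = 3 ∧ d = 1) := by omega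
      · rw [b3] at h1
        rw [be_one, Num_uu1 (by omega)]; linarith [s3 rfl]
      · rw [Num_be2] at h1 ⊢
        rw [Num_uu1 (by omega)]; linarith [s2 rfl]
      · rw [be_one] at h1
        rw [b3, Num_uu2 (by omega)]; linarith [s1 rfl]

theorem Num_inv {ι : Type*} (I : Finset ι) (f : ι → ℕ) (hf : ∀ i ∈ I, 1 ≤ f i) :
    NumI (∑ i ∈ I, f i) (∏ i ∈ I, be (f i)) ((∏ i ∈ I, be (f i)) * ∑ i ∈ I, uu (f i)) := by
  induction I using Finset.cons_induction with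
  | empty => exact Or.inl ⟨rfl, rfl, by simp⟩
  | cons a s ha ih =>
    have := Num_step (ih fun i hi => hf i (mem_cons_of_mem hi)) (hf a (mem_cons_self _ _))
    rw [sum_cons, prod_cons, sum_cons]
    convert this using 1
    ring

theorem num_prod {ι : Type*} (I : Finset ι) (f : ι → ℕ) (hf : ∀ i ∈ I, 1 ≤ f i) :
    ∏ i ∈ I, be (f i) ≤ be (∑ i ∈ I, f i) := by
  rcases Num_inv I f hf with ⟨h1, h2, -⟩ | h
  · rw [h1, h2, Num_be0]
  · exact h.2.2.2.1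

theorem num_close {ι : Type*} (I : Finset ι) (f : ι → ℕ) (hf : ∀ i ∈ I, 1 ≤ f i) :
    (∏ i ∈ I, be (f i)) * (1 + ∑ i ∈ I, uu (f i)) ≤
      be (∑ i ∈ I, f i + 1) * uu (∑ i ∈ I, f i + 1) := by
  rw [mul_add, mul_one]
  rcases Num_inv I f hf with ⟨h1, h2, h3⟩ | ⟨hd, hP, hS, h1, h2, h3, s1, s2, s3, s4⟩
  · rw [h3, h1, h2, zero_add, be_one, Num_uu1 (by omega)]; norm_num
  · by_cases e : ∑ i ∈ I, f i = 1
    · rw [e, be_one] at h1
      rw [e, Num_be2, Num_uu1 le_rfl]; linarith [s1 e]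
    · rw [Num_be e, Num_uu2 (by omega)]; linarith

theorem num_open {ι : Type*} (I : Finset ι) (f : ι → ℕ) (hf : ∀ i ∈ I, 1 ≤ f i) :
    2 * ((∏ i ∈ I, be (f i)) * ∑ i ∈ I, uu (f i)) ≤
      3 * (be (∑ i ∈ I, f i) * uu (∑ i ∈ I, f i)) := by
  rcases Num_inv I f hf with ⟨h1, h2, h3⟩ | ⟨hd, hP, hS, h1, h2, h3, s1, s2, s3, s4⟩
  · rw [h3, h1, Num_be0, Num_uu1 (by omega)]; norm_num
  · generalize ∑ i ∈ I, f i = d at *
    obtain rfl | rfl | k : d = 1 ∨ d = 2 ∨ 3 ≤ d := by omega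
    · rw [be_one, Num_uu1 (by omega)]; linarith [s1 rfl]
    · rw [Num_be2, Num_uu1 (by omega)]; linarith [s2 rfl]
    · obtain ⟨e, rfl⟩ : ∃ e, d = e + 1 := ⟨d - 1, by omega⟩
      rw [pow_succ] at h3
      rw [Num_be (by omega), Num_uu2 k]
      nlinarith [Num_pos e, Num_hi]

theorem num_first {ι : Type*} (I : Finset ι) (f : ι → ℕ) (hf : ∀ i ∈ I, 1 ≤ f i) :
    1 + (∏ i ∈ I, be (f i)) * ∑ i ∈ I, uu (f i) ≤ be (∑ i ∈ I, f i + 1) := by
  rcases Num_inv I f hf with ⟨h1, h2, h3⟩ | ⟨hd, hP, hS, h1, h2, h3, s1, s2, s3, s4⟩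
  · rw [h3, h1, zero_add, be_one]; norm_num
  · generalize ∑ i ∈ I, f i = d at *
    obtain rfl | rfl | rfl | rfl | k : d = 1 ∨ d = 2 ∨ d = 3 ∨ d = 4 ∨ 5 ≤ d := by omega
    · rw [Num_be2]; linarith [s1 rfl]
    · rw [Num_be (by omega), Num_p2]; linarith [s2 rfl]
    · rw [Num_be (by omega), Num_p3]; linarith [s3 rfl, Num_lo]
    · rw [Num_be (by omega), Num_p4]; linarith [s4 rfl]
    · rw [Num_be (by omega)]
      have := pow_le_pow_right₀ (a := √3) (by linarith [Num_lo]) k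
      rw [pow_succ, Num_p4] at this
      linarith [Num_lo]

end Cfsg.Agent.MK
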