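import Cfsg.Agent.MK.Defs
import Cfsg.Agent.MK.Num

/-! Refinement of partitions. See stubs/Cfsg/Agent/MK/PLAN.md, section Part. -/

set_option autoImplicit false
set_option linter.unusedSectionVars false

namespace Cfsg.Agent.MK

open Finset

variable {α : Type*} [Fintype α] [DecidableEq α] {o o' : α → Finset α}

theorem Phi_pos (o : α → Finset α) (S : Finset α) : 0 < Phi o S := prod_pos fun _ _ => be_pos _

namespace Part

variable {S T : Finset α}

/-- `S` is a union of classes. -/
def Cd (o : α → Finset α) (S : Finset α) : Prop := ∀ x ∈ S, o x ⊆ S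

theorem cd_univ : Cd o univ := fun _ _ => subset_univ _

theorem cd_cls (h : Cl o) (w : α) : Cd o (o w) := fun x hx => (h.2 w x hx).le

theorem Cd.sdiff (h : Cl o) (hS : Cd o S) (hT : Cd o T) : Cd o (S \ T) := fun x hx y hy =>
  mem_sdiff.2 ⟨hS x (mem_sdiff.1 hx).1 hy, fun k => (mem_sdiff.1 hx).2 (hT y k (h.2 x y hy ▸ h.1 x))⟩

theorem Cd.ref (hr : ∀ x, o' x ⊆ o x) (hS : Cd o S) : Cd o' S := fun x hx => (hr x).trans (hS x hx)

theorem cd_single {a : α} (ha : o a = {a}) : Cd o {a} := fun x hx => by rw [mem_singleton.1 hx, ha]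

theorem Psi_nonneg (o : α → Finset α) (S : Finset α) : 0 ≤ Psi o S := sum_nonneg fun _ _ => (uu_pos _).le

theorem one_le (h : Cl o) (S : Finset α) : ∀ O ∈ S.image o, 1 ≤ O.card := fun O hO => by
  obtain ⟨x, -, rfl⟩ := mem_image.1 hO
  exact card_pos.2 ⟨x, h.1 x⟩

theorem sum_card (h : Cl o) (hS : Cd o S) : ∑ O ∈ S.image o, O.card = S.card := by
  rw [card_eq_sum_card_image o S]
  refine sum_congr rfl fun O hO => ?_
  obtain ⟨y, hy, rfl⟩ := mem_image.1 hO
  congr 1
  ext x
  rw [mem_filter]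
  exact ⟨fun k => ⟨hS y hy k, h.2 y x k⟩, fun k => k.2 ▸ h.1 x⟩

theorem split (h : Cl o) (hT : Cd o T) (hTS : T ⊆ S) : Phi o S = Phi o T * Phi o (S \ T) := by
  conv_lhs => rw [← union_sdiff_of_subset hTS]
  rw [Phi, image_union, prod_union]
  · rfl
  · refine disjoint_left.2 fun O h1 h2 => ?_
    obtain ⟨x, hx, rfl⟩ := mem_image.1 h1
    obtain ⟨y, hy, e⟩ := mem_image.1 h2
    exact (mem_sdiff.1 hy).2 (hT x hx (e ▸ h.1 y))

theorem image_self (h : Cl o) (w : α) : (o w).image o = {o w} := by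
  ext O
  rw [mem_image, mem_singleton]
  exact ⟨fun ⟨x, hx, e⟩ => e ▸ h.2 w x hx, fun e => ⟨w, h.1 w, e.symm⟩⟩

theorem Phi_self (h : Cl o) (w : α) : Phi o (o w) = be (o w).card := by
  rw [Phi, image_self h, prod_singleton]

theorem Phi_le_be (h : Cl o) (hS : Cd o S) : Phi o S ≤ be S.card :=
  sum_card h hS ▸ num_prod _ _ (one_le h S)

theorem Phi_le (h : Cl o) (h' : Cl o') (hr : ∀ x, o' x ⊆ o x) (hS : Cd o S) : Phi o' S ≤ Phi o S := by
  induction S using Finset.strongInduction with
  | H S ih =>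
    rcases S.eq_empty_or_nonempty with rfl | ⟨x, hx⟩
    · simp [Phi]
    have h1 := (cd_cls h x).ref hr
    rw [split h' h1 (hS x hx), split h (cd_cls h x) (hS x hx), Phi_self h]
    exact mul_le_mul (Phi_le_be h' h1) (ih _ (sdiff_ssubset (hS x hx) ⟨x, h.1 x⟩) (hS.sdiff h (cd_cls h x)))
      (Phi_pos _ _).le (be_pos _).le

theorem Phi_erase (h : Cl o) {a : α} (ha : o a = {a}) (haS : a ∈ S) : Phi o S = Phi o (S.erase a) := by
  rw [split h (cd_single ha) (singleton_subset_iff.2 haS), sdiff_singleton_eq_erase, Phi, image_singleton,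
    prod_singleton, ha, card_singleton, be_one, one_mul]

theorem Cd.erase (h : Cl o) (hS : Cd o S) {a : α} (ha : o a = {a}) : Cd o (S.erase a) :=
  sdiff_singleton_eq_erase a S ▸ hS.sdiff h (cd_single ha)

end Part

open Part

theorem Phi_univ_le (h : Cl o) : Phi o univ ≤ be (Fintype.card α) := Phi_le_be h cd_univ

theorem Psi_self (h : Cl o) (w : α) : Psi o (o w) = uu (o w).card := by
  rw [Psi, image_self h, sum_singleton]

theorem Phi_conj (e : Equiv.Perm α) (he : ∀ x, o' (e x) = (o x).image e) :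
    Phi o' univ = Phi o univ := by
  have h1 : univ.image o' = (univ.image o).image (·.image e) := by
    rw [image_image]
    conv_lhs => rw [← image_univ_equiv e, image_image]
    exact image_congr fun x _ => he x
  rw [Phi, h1, prod_image fun A _ B _ k => image_injective e.injective k]
  exact prod_congr rfl fun O _ => by rw [card_image_of_injective _ e.injective]

theorem part_close (h : Cl o) (h' : Cl o') (hr : ∀ x, o' x ⊆ o x) {a w : α} (ha : o' a = {a})
    (haw : a ∈ o w) :
    Phi o' univ * (1 + Psi o' ((o w).erase a)) ≤ Phi o univ * uu (o w).card := by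
  have h1 := (cd_cls h w).ref hr
  have h2 := num_close _ _ (one_le h' ((o w).erase a))
  rw [sum_card h' (h1.erase h' ha), card_erase_add_one haw] at h2
  have h3 := Phi_le h h' hr (cd_univ.sdiff h (cd_cls h w))
  rw [split h' h1 (subset_univ _), split h (cd_cls h w) (subset_univ _), Phi_self h, Phi_erase h' ha haw,
    mul_right_comm, mul_right_comm (be _)]
  exact mul_le_mul h2 h3 (Phi_pos _ _).le (mul_pos (be_pos _) (uu_pos _)).le

theorem part_open (h : Cl o) (h' : Cl o') (hr : ∀ x, o' x ⊆ o x) {a w : α} (ha : o' a = {a})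
    (haw : a ∉ o w) (hne : o a ≠ {a}) :
    Phi o' univ * Psi o' (o w) ≤ Phi o univ * uu (o w).card := by
  have h1 := (cd_cls h w).ref hr
  have k1 := (cd_cls h a).ref hr
  have h0 := cd_univ.sdiff h (cd_cls h w)
  have hE : o a ⊆ univ \ o w := h0 a (mem_sdiff.2 ⟨mem_univ _, haw⟩)
  have h2 := num_open _ _ (one_le h' (o w))
  rw [sum_card h' h1] at h2
  have h3 := Phi_le h h' hr (h0.sdiff h (cd_cls h a))
  have h4 := Phi_le_be h' (k1.erase h' ha)
  have h5 := be_succ (d := ((o a).erase a).card) (card_pos.2 (nonempty_iff_ne_empty.2 fun e =>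
    hne (((erase_eq_empty_iff _ _).1 e).resolve_left (ne_empty_of_mem (h.1 a)))))
  rw [card_erase_add_one (h.1 a)] at h5
  rw [split h' h1 (subset_univ _), split h (cd_cls h w) (subset_univ _), split h' k1 hE, split h (cd_cls h a) hE,
    Phi_self h, Phi_self h, Phi_erase h' ha (h.1 a)]
  have h6 : 3 * Phi o' ((o a).erase a) ≤ 2 * be (o a).card := by linarith
  have h7 := mul_le_mul (mul_le_mul h2 h6 (mul_pos three_pos (Phi_pos _ _)).le
    (mul_pos three_pos (mul_pos (be_pos _) (uu_pos _))).le) h3 (Phi_pos _ _).le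
    (mul_pos (mul_pos three_pos (mul_pos (be_pos _) (uu_pos _))) (mul_pos two_pos (be_pos _))).le
  change 2 * (Phi o' (o w) * Psi o' (o w)) * _ * _ ≤ _ at h7
  linarith

theorem part_first {o'' : α → Finset α} (h : Cl o) (h' : Cl o') (h'' : Cl o'')
    (hr : ∀ x, o' x ⊆ o x) (hr' : ∀ x, o'' x ⊆ o x) {a : α} (ha : o' a = {a})
    (hD : ∀ x ∈ o a, o'' x = {x}) :
    Phi o'' univ + Phi o' univ * Psi o' ((o a).erase a) ≤ Phi o univ := by
  have h1 := (cd_cls h a).ref hr
  have h2 := num_first _ _ (one_le h' ((o a).erase a))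
  rw [sum_card h' (h1.erase h' ha), card_erase_add_one (h.1 a)] at h2
  have h0 := cd_univ.sdiff h (cd_cls h a)
  have h3 := Phi_le h h' hr h0
  have h4 := Phi_le h h'' hr' h0
  have h5 : Phi o'' (o a) = 1 := prod_eq_one fun O hO => by
    obtain ⟨x, hx, rfl⟩ := mem_image.1 hO
    rw [hD x hx, card_singleton, be_one]
  rw [split h' h1 (subset_univ _), split h'' ((cd_cls h a).ref hr') (subset_univ _),
    split h (cd_cls h a) (subset_univ _), Phi_self h, Phi_erase h' ha (h.1 a), h5, one_mul, mul_right_comm]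
  have h6 := mul_le_mul_of_nonneg_left h3 (mul_nonneg (Phi_pos o' ((o a).erase a)).le (Psi_nonneg o' ((o a).erase a)))
  have h7 := mul_le_mul_of_nonneg_right h2 (Phi_pos o (univ \ o a)).le
  rw [add_mul, one_mul] at h7
  exact (add_le_add h4 h6).trans h7

end Cfsg.Agent.MK
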